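import Cfsg.Agent.H5.K547.Base

/-!
# S4547: signed permutations of four objects

`M` maps onto `Perm (Fin 4)` with a cocycle `δ` in `(ZMod 2) ^ 4`; an element of the kernel has `δ = (1,0,1,0)`.
Then the Sylow 2-subgroups of `M` need three generators.
-/

set_option autoImplicit false

namespace Cfsg.Agent.H158.K547

open Cfsg.Agent.H821.K547

universe u

/-- the blocks `{0,1}`, `{2,3}` -/
def blk (i : Fin 4) : ZMod 2 := if i.val < 2 then 0 else 1

/-- the stabiliser of the two blocks -/
def BB : Subgroup (Equiv.Perm (Fin 4)) where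
  carrier := {σ | blk (σ 0) = blk (σ 1)}
  mul_mem' := by
    have h : ∀ σ τ : Equiv.Perm (Fin 4), blk (σ 0) = blk (σ 1) → blk (τ 0) = blk (τ 1) →
        blk ((σ * τ) 0) = blk ((σ * τ) 1) := by decide +kernel
    exact fun {a b} ha hb => h a b ha hb
  one_mem' := by decide
  inv_mem' := by
    have h : ∀ σ : Equiv.Perm (Fin 4), blk (σ 0) = blk (σ 1) → blk (σ⁻¹ 0) = blk (σ⁻¹ 1) := by decide +kernel
    exact fun {a} ha => h a ha

instance decBB : DecidablePred (· ∈ BB) := fun σ => inferInstanceAs (Decidable (blk (σ 0) = blk (σ 1)))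

/-- the swap of the blocks -/
def xx (σ : Equiv.Perm (Fin 4)) : ZMod 2 := blk (σ 0)

/-- the parity -/
def yy (σ : Equiv.Perm (Fin 4)) : ZMod 2 := if Equiv.Perm.sign σ = 1 then 0 else 1

/-- the correction -/
def ff (σ : Equiv.Perm (Fin 4)) : ZMod 2 := ((σ 2).val : ZMod 2)

theorem xx_mul : ∀ σ τ : Equiv.Perm (Fin 4), blk (σ 0) = blk (σ 1) → blk (τ 0) = blk (τ 1) →
    xx (σ * τ) = xx σ + xx τ := by decide +kernel

theorem yy_mul : ∀ σ τ : Equiv.Perm (Fin 4), yy (σ * τ) = yy σ + yy τ := by decide +kernel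

theorem ff_mul : ∀ σ τ : Equiv.Perm (Fin 4), blk (σ 0) = blk (σ 1) → blk (τ 0) = blk (τ 1) →
    ff (σ * τ) = ff σ + ff τ + xx τ * yy σ := by decide +kernel

theorem sum_blk (v0 v1 v2 v3 : ZMod 2) (τ : Equiv.Perm (Fin 4)) (h : blk (τ 0) = blk (τ 1)) :
    ![v0, v1, v2, v3] (τ 0) + ![v0, v1, v2, v3] (τ 1) = v0 + v1 + xx τ * (v0 + v1 + v2 + v3) := by
  revert v0 v1 v2 v3 τ
  decide +kernel

theorem BB_index : BB.index = 3 := by
  have h1 : Nat.card ↥BB = 8 := by
    rw [Nat.card_eq_fintype_card]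
    decide +kernel
  have h2 := BB.card_mul_index
  rw [h1, Nat.card_eq_fintype_card, Fintype.card_perm, Fintype.card_fin] at h2
  have h3 : Nat.factorial 4 = 24 := rfl
  omega

/-- a homomorphism from an additive function -/
def mkHom {P : Type u} [Group P] (z : P → ZMod 2) (hz : ∀ g h, z (g * h) = z g + z h) :
    P →* Multiplicative (ZMod 2) :=
  MonoidHom.mk' (fun g => Multiplicative.ofAdd (z g)) (fun g h => by rw [hz, ofAdd_add])

/-- a homomorphism of `M` to `ZMod 2` which vanishes on the kernel of `π` is a multiple of the parity -/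
theorem exists_par {M : Type u} [Group M] (π : M →* Equiv.Perm (Fin 4)) (hπ : Function.Surjective π)
    (z : M → ZMod 2) (hz : ∀ g h, z (g * h) = z g + z h) (hk : ∀ g, π g = 1 → z g = 0) :
    ∃ b : ZMod 2, ∀ g, z g = b * yy (π g) := by
  have h0 : z 1 = 0 := hk 1 (map_one π)
  have hinv : ∀ g, z g⁻¹ = z g := by
    intro g
    have h1 := hz g g⁻¹
    rw [mul_inv_cancel, h0] at h1
    generalize z g = a at h1 ⊢
    generalize z g⁻¹ = b at h1 ⊢
    revert a b
    decide
  have hfac : ∀ g h, π g = π h → z g = z h := by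
    intro g h hgh
    have h1 := hk (g * h⁻¹) (by rw [map_mul, map_inv, hgh, mul_inv_cancel])
    rw [hz, hinv] at h1
    generalize z g = a at h1 ⊢
    generalize z h = b at h1 ⊢
    revert a b
    decide
  choose s hs using hπ
  let χ : Equiv.Perm (Fin 4) →* ℤˣ := MonoidHom.mk' (fun σ => if z (s σ) = 0 then 1 else -1) (fun σ τ => by
    have h1 : z (s (σ * τ)) = z (s σ) + z (s τ) := by
      rw [← hz]
      exact hfac _ _ (by rw [hs, map_mul, hs, hs])
    rw [h1]
    generalize z (s σ) = a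
    generalize z (s τ) = b
    revert a b
    decide)
  have hχ : ∀ g, z g = 0 ↔ χ (π g) = 1 := by
    intro g
    have h1 : z g = z (s (π g)) := hfac _ _ (by rw [hs])
    rw [h1]
    change _ ↔ (if z (s (π g)) = 0 then (1 : ℤˣ) else -1) = 1
    generalize z (s (π g)) = a
    revert a
    decide
  by_cases hsur : Function.Surjective χ
  · have h1 := Equiv.Perm.eq_sign_of_surjective_hom hsur
    refine ⟨1, fun g => ?_⟩
    have h2 := hχ g
    rw [h1] at h2
    rw [one_mul]
    unfold yy
    generalize z g = a at h2 ⊢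
    split_ifs with h3
    · exact h2.2 h3
    · have h4 : ¬ a = 0 := fun h => h3 (h2.1 h)
      clear h2
      revert a
      decide
  · refine ⟨0, fun g => ?_⟩
    rw [zero_mul, hχ]
    by_contra h3
    apply hsur
    intro u
    rcases Int.units_eq_one_or u with rfl | rfl
    · exact ⟨1, map_one χ⟩
    · exact ⟨π g, (Int.units_eq_one_or _).resolve_left h3⟩

theorem sum_four (v : Fin 4 → ZMod 2) (σ : Equiv.Perm (Fin 4)) :
    v (σ 0) + v (σ 1) + v (σ 2) + v (σ 3) = v 0 + v 1 + v 2 + v 3 := by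
  have h := Equiv.sum_comp σ v
  rw [Fin.sum_univ_four, Fin.sum_univ_four] at h
  exact h

/-- **D3** for signed permutation groups on four objects -/
theorem d3_sfour {M : Type u} [Group M] [Finite M] (π : M →* Equiv.Perm (Fin 4)) (hπ : Function.Surjective π)
    (δ : M → Fin 4 → ZMod 2) (hδ : ∀ g h i, δ (g * h) i = δ g (π h i) + δ h i) (g0 : M) (h0 : π g0 = 1)
    (h2 : δ g0 0 + δ g0 1 = 1) : D3 M := by
  let P : Subgroup M := BB.comap π
  have hP : ¬ 2 ∣ P.index := by
    rw [Subgroup.index_comap_of_surjective _ hπ, BB_index]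
    decide
  have hmem : ∀ g : ↥P, blk (π g.1 0) = blk (π g.1 1) := fun g => g.2
  let tot : M → ZMod 2 := fun g => δ g 0 + δ g 1 + δ g 2 + δ g 3
  have htot : ∀ g h, tot (g * h) = tot g + tot h := by
    intro g h
    change δ (g * h) 0 + δ (g * h) 1 + δ (g * h) 2 + δ (g * h) 3 = _
    rw [hδ, hδ, hδ, hδ]
    have h3 := sum_four (δ g) (π h)
    change _ = (δ g 0 + δ g 1 + δ g 2 + δ g 3) + (δ h 0 + δ h 1 + δ h 2 + δ h 3)
    rw [← h3]
    ring
  -- the first two homomorphisms
  let X : ↥P →* Multiplicative (ZMod 2) := mkHom (fun g => xx (π g.1)) (fun g h => by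
    rw [Subgroup.coe_mul, map_mul]
    exact xx_mul _ _ (hmem g) (hmem h))
  let Y : ↥P →* Multiplicative (ZMod 2) := mkHom (fun g => yy (π g.1)) (fun g h => by
    rw [Subgroup.coe_mul, map_mul]
    exact yy_mul _ _)
  obtain ⟨gx, hgx⟩ := hπ (Equiv.swap 0 2 * Equiv.swap 1 3)
  obtain ⟨gy, hgy⟩ := hπ (Equiv.swap 0 1)
  have hgxP : gx ∈ P := by
    change blk (π gx 0) = blk (π gx 1)
    rw [hgx]
    decide
  have hgyP : gy ∈ P := by
    change blk (π gy 0) = blk (π gy 1)
    rw [hgy]
    decide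
  -- it is enough to find the third one
  have key : ∀ (Z : ↥P →* Multiplicative (ZMod 2)) (g : M) (hg : π g = 1),
      (∀ hP : g ∈ P, Z ⟨g, hP⟩ = Multiplicative.ofAdd 1) → D3 M := by
    intro Z g hg hZ
    have hgP : g ∈ P := by
      change blk (π g 0) = blk (π g 1)
      rw [hg]
      decide
    have hZ1 := hZ hgP
    let gz : ↥P := ⟨g, hgP⟩
    let a : ↥P := ⟨gx, hgxP⟩
    let b : ↥P := ⟨gy, hgyP⟩
    let a' : ↥P := a * gz ^ (Z a).toAdd.val
    let b' : ↥P := b * gz ^ (Z b).toAdd.val
    have hX0 : X gz = 1 := by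
      change Multiplicative.ofAdd (xx (π g)) = 1
      rw [hg]
      decide
    have hY0 : Y gz = 1 := by
      change Multiplicative.ofAdd (yy (π g)) = 1
      rw [hg]
      decide
    have hXa : X a = Multiplicative.ofAdd 1 := by
      change Multiplicative.ofAdd (xx (π gx)) = _
      rw [hgx]
      decide
    have hYa : Y a = 1 := by
      change Multiplicative.ofAdd (yy (π gx)) = _
      rw [hgx]
      decide
    have hXb : X b = 1 := by
      change Multiplicative.ofAdd (xx (π gy)) = _
      rw [hgy]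
      decide
    have hYb : Y b = Multiplicative.ofAdd 1 := by
      change Multiplicative.ofAdd (yy (π gy)) = _
      rw [hgy]
      decide
    have hself : ∀ c : Multiplicative (ZMod 2), c * (Multiplicative.ofAdd (1 : ZMod 2)) ^ c.toAdd.val = 1 := by
      decide
    have hZa : Z a' = 1 := by
      change Z (a * gz ^ (Z a).toAdd.val) = 1
      rw [map_mul, map_pow, hZ1, hself]
    have hZb : Z b' = 1 := by
      change Z (b * gz ^ (Z b).toAdd.val) = 1
      rw [map_mul, map_pow, hZ1, hself]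
    have hXa' : X a' = Multiplicative.ofAdd 1 := by
      change X (a * gz ^ (Z a).toAdd.val) = _
      rw [map_mul, map_pow, hX0, one_pow, mul_one, hXa]
    have hYa' : Y a' = 1 := by
      change Y (a * gz ^ (Z a).toAdd.val) = _
      rw [map_mul, map_pow, hY0, one_pow, mul_one, hYa]
    have hXb' : X b' = 1 := by
      change X (b * gz ^ (Z b).toAdd.val) = _
      rw [map_mul, map_pow, hX0, one_pow, mul_one, hXb]
    have hYb' : Y b' = Multiplicative.ofAdd 1 := by
      change Y (b * gz ^ (Z b).toAdd.val) = _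
      rw [map_mul, map_pow, hY0, one_pow, mul_one, hYb]
    obtain ⟨f, hf⟩ := H5.K547.exists_surj ![X, Y, Z] ![a', b', gz] (by
      intro i j
      fin_cases i <;> fin_cases j
      · exact hXa'
      · exact hXb'
      · exact hX0
      · exact hYa'
      · exact hYb'
      · exact hY0
      · exact hZa
      · exact hZb
      · exact hZ1)
    exact H5.K547.d3_of_hom P hP f hf
  by_cases hA : ∃ g, π g = 1 ∧ tot g = 1
  · obtain ⟨g, hg, ht⟩ := hA
    refine key (mkHom (fun g => tot g.1) (fun g h => htot _ _)) g hg (fun _ => ?_)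
    change Multiplicative.ofAdd (tot g) = _
    rw [ht]
  · have hk : ∀ g, π g = 1 → tot g = 0 := by
      intro g hg
      by_contra h
      apply hA
      refine ⟨g, hg, ?_⟩
      generalize tot g = a at h ⊢
      revert a
      decide
    obtain ⟨b, hb⟩ := exists_par π hπ tot htot hk
    refine key (mkHom (fun g => δ g.1 0 + δ g.1 1 + b * ff (π g.1)) (fun g h => ?_)) g0 h0 (fun _ => ?_)
    · rw [Subgroup.coe_mul, map_mul, hδ, hδ, ff_mul _ _ (hmem g) (hmem h)]
      have h3 := sum_blk (δ g.1 0) (δ g.1 1) (δ g.1 2) (δ g.1 3) (π h.1) (hmem h)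
      have h4 : ∀ i, ![δ g.1 0, δ g.1 1, δ g.1 2, δ g.1 3] i = δ g.1 i := by
        intro i
        fin_cases i <;> rfl
      rw [h4, h4] at h3
      have h5 : δ g.1 0 + δ g.1 1 + δ g.1 2 + δ g.1 3 = b * yy (π g.1) := hb g.1
      rw [h5] at h3
      have h6 : ∀ u v w x' y' b' f f' : ZMod 2, u = v + x' * (b' * y') →
          u + w + b' * (f + f' + x' * y') = v + b' * f + (w + b' * f') := by decide +kernel
      have h7 := h6 _ _ (δ h.1 0 + δ h.1 1) _ _ _ (ff (π g.1)) (ff (π h.1)) h3
      linear_combination h7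
    · change Multiplicative.ofAdd (δ g0 0 + δ g0 1 + b * ff (π g0)) = _
      rw [h2, h0, show ff 1 = 0 from by decide, mul_zero, add_zero]

end Cfsg.Agent.H158.K547
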